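/-
Involution centralisers in groups of Lie type, VIII: the number of blocks.
-/
import Cfsg.Agent.KSG.IX.Glue

set_option autoImplicit false

namespace CL.IX

open CL.Chev Cfsg.Lie Cfsg.Lie.ChevalleyDatum

section Gen

variable {ι κ : Type*} [Fintype κ] [DecidableEq κ] {R : RootSys ι κ}

variable (R) in
/-- at most two components -/
def Two (T : Set ι) : Prop :=
  ∃ a ∈ T, ∃ b ∈ T, ∀ r ∈ T, ∃ s ∈ T, R.pair r s ≠ 0 ∧ (R.pair s a ≠ 0 ∨ R.pair s b ≠ 0)

theorem Two.of_W {T : Set ι} {w : Equiv.Perm ι} (hw : w ∈ R.W) (h : Two R (w ⁻¹' T)) : Two R T := by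
  obtain ⟨a, ha, b, hb, h⟩ := h
  refine ⟨w a, ha, w b, hb, fun r hr => ?_⟩
  obtain ⟨r, rfl⟩ := w.surjective r
  obtain ⟨s, hs, h⟩ := h r hr
  exact ⟨w s, hs, by simpa only [RootSys.W_pair hw] using h⟩

theorem exists_par {K : Type*} [Field K] {t : κ → Kˣ} (h2 : ∀ r, uchr t (R.wt r) ^ 2 = 1) :
    ∃ c : κ → ℤ, R.Phi t = {r | Even (∑ i, R.rt r i * c i)} := by
  classical
  have h1 : ∀ r, uchr t (R.wt r) = 1 ∨ uchr t (R.wt r) = -1 := fun r => by
    simpa only [Units.ext_iff, Units.val_neg, Units.val_one] using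
      (sq_eq_one_iff (a := ((uchr t (R.wt r) : Kˣ) : K))).1 (congrArg Units.val (h2 r))
  by_cases h0 : (-1 : Kˣ) = 1
  · exact ⟨0, Set.ext fun r => by simpa [RootSys.Phi, h0] using h1 r⟩
  refine ⟨fun i => if uchr t (R.wt (R.simple i)) = 1 then 0 else 1, Set.ext fun r => ?_⟩
  have e : R.wt r = ∑ i, R.rt r i • R.wt (R.simple i) := funext fun j => by
    simp only [Finset.sum_apply, Pi.smul_apply, R.wt_simple, smul_eq_mul]
    exact Finset.sum_congr rfl fun _ _ => mul_comm _ _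
  have e2 : uchr t (R.wt r) = uchr (fun i => (-1) ^ (if uchr t (R.wt (R.simple i)) = 1 then 0 else 1 : ℤ)) (R.rt r) := by
    rw [e, uchr_sum]
    refine Finset.prod_congr rfl fun i _ => ?_
    rw [uchr_smul]
    beta_reduce
    split_ifs with h
    · rw [h, zpow_zero]
    · rw [(h1 _).resolve_left h, zpow_one]
  rw [RootSys.Phi, Set.mem_ofPred_eq, Set.mem_ofPred_eq, e2, uchr_zpow_const, dotProduct_comm]
  refine ⟨fun h => not_not.1 fun h' => h0 ?_, Even.neg_one_zpow⟩
  exact (Int.not_even_iff_odd.1 h').neg_one_zpow.symm.trans h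

theorem card_le_of_two [Finite ι] {T B : Set ι} [Fintype B] [DecidableEq B] (hB : R.IsBase T (Subtype.val : B → ι))
    {K Γ κ' : Type*} [Field K] [Group Γ] {S' : StData (hB.sys Subtype.val_injective) K Γ} (U : S'.Twist κ')
    (h : Two R T) : Nat.card (Blk U) ≤ 2 := by
  obtain ⟨a, ha, b, hb, h⟩ := h
  choose g hg using Blk.exists_mem U
  have key : ∀ {x y : Blk U} {r s : T}, r ∈ (hB.sys _).sub x.J → s ∈ (hB.sys _).sub y.J → R.pair r s ≠ 0 → x = y :=
    fun hr hs e => not_not.1 fun e' => e <| (hB.sys_pair _ _ _).symm.trans <| pair_eq_zero_of_sub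
      (fun i hi j hj => Blk.A_eq hj fun h => e' (h.symm.trans hi).symm |>.elim) hr hs
  refine (Nat.card_le_card_of_surjective (fun x : Bool => if x then g ⟨a, ha⟩ else g ⟨b, hb⟩) fun x => ?_).trans (by simp)
  obtain ⟨i, hi⟩ := (inferInstance : Nonempty x.J)
  obtain ⟨s, hs, h1, h2⟩ := h _ ((hB.sys Subtype.val_injective).simple i).2
  obtain rfl := key ((hB.sys _).simple_mem_sub.2 hi) (hg ⟨s, hs⟩) h1
  exact h2.elim (fun h => ⟨true, (key (hg ⟨s, hs⟩) (hg ⟨a, ha⟩) h).symm⟩)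
    fun h => ⟨false, (key (hg ⟨s, hs⟩) (hg ⟨b, hb⟩) h).symm⟩

end Gen

/-- some `k < n` with `f k` -/
def anyLt (n : ℕ) (f : ℕ → Bool) : Bool := !allLt n fun k => !f k

theorem anyLt_iff (n : ℕ) (f : ℕ → Bool) : anyLt n f = true ↔ ∃ k < n, f k = true := by
  rw [anyLt, Bool.not_eq_true', ← Bool.not_eq_true, allLt_iff]; simp

/-- parity of a root at the bit vector `m` -/
def evn (C : Cert) (l m r : ℕ) : Bool := ieq (sumLt l (fun i => C.co r i * (m / 2 ^ i % 2 : ℕ)) % 2) 0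

def chk2 (C : Cert) (n l m a b : ℕ) : Bool := Nat.blt a n && Nat.blt b n && evn C l m a && evn C l m b &&
  allLt n fun r => !evn C l m r || anyLt n fun s => evn C l m s && !ieq (C.pairF l r s) 0 &&
    (!ieq (C.pairF l s a) 0 || !ieq (C.pairF l s b) 0)

variable {D : ChevalleyDatum} [Good D] {K Γ κ' : Type*} [Field K] [Group Γ]

theorem exists_bits {l : ℕ} (c : Fin l → ℤ) : ∃ m < 2 ^ l, ∀ i : Fin l, c i % 2 = (m / 2 ^ (i : ℕ) % 2 : ℕ) := by
  let d : Fin l → Fin 2 := fun i => ⟨(c i % 2).toNat, by omega⟩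
  refine ⟨finFunctionFinEquiv d, (finFunctionFinEquiv d).2, fun i => ?_⟩
  rw [← finFunctionFinEquiv_symm_apply_val, Equiv.symm_apply_apply]
  simp only [d]; omega

theorem evn_iff {c : Fin D.rank → ℤ} {m : ℕ} (h : ∀ i : Fin D.rank, c i % 2 = (m / 2 ^ (i : ℕ) % 2 : ℕ)) (r : Rt D) :
    evn (Good.C D) D.rank m r = true ↔ Even (∑ i, (rootSys D).rt r i * c i) := by
  rw [evn, ieq_iff, sumLt_eq, Int.even_iff, Finset.sum_int_mod, Finset.sum_int_mod _ _ fun i => _ * c i]
  refine Eq.congr_left (congrArg (· % 2) (Finset.sum_congr rfl fun i _ => ?_))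
  rw [← h, Int.mul_emod, Int.emod_emod, ← Int.mul_emod]; rfl

theorem two_of_chk {c : Fin D.rank → ℤ} {m a b : ℕ} (h : ∀ i : Fin D.rank, c i % 2 = (m / 2 ^ (i : ℕ) % 2 : ℕ))
    (e : chk2 (Good.C D) D.nroots D.rank m a b = true) : Two (rootSys D) {r | Even (∑ i, (rootSys D).rt r i * c i)} := by
  simp only [chk2, Bool.and_eq_true, Nat.blt_eq, allLt_iff, Bool.or_eq_true, anyLt_iff, Bool.not_eq_true',
    ← Bool.not_eq_true, ieq_iff] at e
  obtain ⟨⟨⟨⟨h1, h2⟩, h3⟩, h4⟩, e⟩ := e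
  refine ⟨⟨a, h1⟩, (evn_iff h _).1 h3, ⟨b, h2⟩, (evn_iff h _).1 h4, fun r hr => ?_⟩
  obtain ⟨s, hs, ⟨h5, h6⟩, h7⟩ := (e r r.2).resolve_left (not_not.2 ((evn_iff h r).2 hr))
  exact ⟨⟨s, hs⟩, (evn_iff h _).1 h5, by simpa only [rootSys_pair, A_eq_pairF] using And.intro h6 h7⟩

/-- the check over the fundamental alcove; the last root is the highest one -/
def chkA (C : Cert) (n l : ℕ) (f : ℕ → ℕ × ℕ) : Bool := allLt (2 ^ l) fun m =>
  ineg (2 - sumLt l fun i => C.co (n - 1) i * (m / 2 ^ i % 2 : ℕ)) || chk2 C n l m (f m).1 (f m).2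

theorem two_of_chkA {f : ℕ → ℕ × ℕ} (e : chkA (Good.C D) D.nroots D.rank f = true) (c : Fin D.rank → ℤ) :
    Two (rootSys D) {r | Even (∑ i, (rootSys D).rt r i * c i)} := by
  have hl : (rootSys D).Lin fun r => ∑ i, (rootSys D).rt r i * c i := by
    have := (rootSys D).lin_of_linear (dotProductBilin ℤ ℤ c)
    simpa only [dotProductBilin_apply_apply, dotProduct, mul_comm] using this
  obtain ⟨w, hw, g, hg, h⟩ := hl.exists_alcove (n := 2) two_pos
  have h1 := ((hl.comp hw).add (hg.lin.mul 2)).eq_sum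
  set c' : Fin D.rank → ℤ := fun i => ∑ j, (rootSys D).rt (w ((rootSys D).simple i)) j * c j + 2 * g ((rootSys D).simple i)
  obtain ⟨m, hm, h2⟩ := exists_bits c'
  have hn : D.nroots - 1 < D.nroots := by have := (sm (D := D) ⟨0, by have := two_le_rank (D := D); omega⟩).2; omega
  have hp : (rootSys D).IsPos ⟨_, hn⟩ := (rootSys_isPos _).2 (pos_of_le _ (by have := two_mul_half (D := D); simp; omega))
  refine .of_W hw ?_
  have := two_of_chk h2 (((Bool.or_eq_true _ _).mp ((allLt_iff _ _).1 e m hm)).resolve_left fun h3 => ?_)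
  · convert this using 1
    ext r
    simp only [Set.mem_preimage, Set.mem_ofPred_eq, c', ← h1 r]
    simp [Int.even_add]
  rw [ineg_iff, sumLt_eq, sub_neg] at h3
  refine h3.not_ge (le_trans (Finset.sum_le_sum fun i _ => ?_) ((h1 _).symm.trans_le (h _ hp).2))
  have h4 : 0 ≤ c' i := (h _ ((rootSys D).isPos_simple i)).1
  exact mul_le_mul_of_nonneg_left (by rw [← h2]; change c' i % 2 ≤ c' i; omega) (((rootSys D).isPos_iff _).1 hp i)

omit [Good D] in
theorem two_indep (g g' : Good D) {c : Fin D.rank → ℤ} (h : Two (@rootSys D g) {r | Even (∑ i, (@rootSys D g).rt r i * c i)}) :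
    Two (@rootSys D g') {r | Even (∑ i, (@rootSys D g').rt r i * c i)} := by
  have e : (@rootSys D g).rt = (@rootSys D g').rt := funext fun r => sub_eq_zero.1 <| eq_zero_of_mulVec (@rootSys D g) fun i => by
    simp only [Pi.sub_apply, mul_sub, Finset.sum_sub_distrib]
    exact sub_eq_zero.2 ((@sum_A_sm_co D g i r).trans (@sum_A_sm_co D g' i r).symm)
  simpa only [Two, rootSys_pair, e] using h

/-- table lookup -/
def tb (L : List (ℕ × ℕ × ℕ)) (m : ℕ) : ℕ × ℕ := List.rec (0, 0) (fun x _ ih => bif Nat.beq x.1 m then x.2 else ih) L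

theorem chkG2 : chkA (Good.C chevG2) chevG2.nroots chevG2.rank (tb [(2, 0, 4)]) = true := by decide +kernel
theorem chkF4 : chkA (Good.C chevF4) chevF4.nroots chevF4.rank (tb [(8, 0, 6)]) = true := by decide +kernel
theorem chkE6 : chkA (Good.C chevE6) chevE6.nroots chevE6.rank
  (tb [(1, 16, 16), (2, 0, 11), (4, 0, 15), (16, 0, 35), (32, 4, 4)]) = true := by decide +kernel
theorem chkE7 : chkA (Good.C chevE7) chevE7.nroots chevE7.rank (tb [(1, 0, 33), (32, 0, 62), (64, 6, 6)]) = true := by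
  decide +kernel
theorem chkE8 : chkA (Good.C chevE8) chevE8.nroots chevE8.rank (tb [(128, 0, 13)]) = true := by decide +kernel

/-- The root system `Phi t = {r | chi_r(t) = 1}` of an involution of the adjoint torus has at most two components. -/
theorem card_blk_le (hD : D ∈ [chevG2, chevF4, chevE6, chevE7, chevE8]) {t : Fin D.rank → Kˣ}
    (h2 : ∀ r, uchr t ((rootSys D).wt r) ^ 2 = 1) {B : Set (Rt D)} [Fintype B] [DecidableEq B]
    (hB : (rootSys D).IsBase ((rootSys D).Phi t) (Subtype.val : B → Rt D))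
    {S' : StData (hB.sys Subtype.val_injective) K Γ} (T : S'.Twist κ') : Nat.card (Blk T) ≤ 2 := by
  obtain ⟨c, hc⟩ := exists_par h2
  refine card_le_of_two hB T (hc ▸ ?_)
  simp only [List.mem_cons, List.not_mem_nil, or_false] at hD
  rcases hD with rfl | rfl | rfl | rfl | rfl
  exacts [two_indep goodG2 _ (@two_of_chkA _ goodG2 _ chkG2 c), two_indep goodF4 _ (@two_of_chkA _ goodF4 _ chkF4 c),
    two_indep goodE6 _ (@two_of_chkA _ goodE6 _ chkE6 c), two_indep goodE7 _ (@two_of_chkA _ goodE7 _ chkE7 c),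
    two_indep goodE8 _ (@two_of_chkA _ goodE8 _ chkE8 c)]

theorem chkD4 : allLt 16 (fun m => anyLt 24 (fun a => chk2 (Good.C chevD4) 24 4 m a a) ||
    allLt 24 fun r => allLt 24 fun s => Nat.beq r s || anyLt 24 fun k => evn (Good.C chevD4) 4 m k &&
      !ieq ((Good.C chevD4).pairF 4 k r) ((Good.C chevD4).pairF 4 k s)) = true := by decide +kernel

theorem sq_apply_of_card {α β : Type*} [Finite α] (π : Equiv.Perm α) (g : α → β) (hg : Function.Surjective g)
    (h : ∀ i, g (π i) = g i) (h4 : Nat.card α ≤ 4) (h3 : 2 < Nat.card β) (i : α) : π (π i) = i := by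
  classical
  by_contra h1
  have := Fintype.ofFinite α
  have := Fintype.ofSurjective g hg
  have h2 : π i ≠ i := fun e => h1 (by rw [e, e])
  have h5 : (Finset.univ : Finset β) ⊆ ((Finset.univ.erase (π i)).erase (π (π i))).image g := fun b _ => by
    obtain ⟨j, rfl⟩ := hg b
    by_cases e : j = π i ∨ j = π (π i)
    · exact Finset.mem_image.2 ⟨i, by simp [h2.symm, Ne.symm h1], by rcases e with rfl | rfl <;> simp [h]⟩
    · exact Finset.mem_image_of_mem _ (by simpa [and_comm, not_or] using e)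
  have h6 := (Finset.card_le_card h5).trans Finset.card_image_le
  rw [Finset.card_erase_of_mem (by simp [h2]), Finset.card_erase_of_mem (Finset.mem_univ _)] at h6
  simp only [Finset.card_univ, ← Nat.card_eq_fintype_card] at h6
  omega

/-- Type `D4` with triality. -/
theorem card_blk_le_D4 {t : Fin chevD4.rank → Kˣ} (h2 : ∀ r, uchr t ((rootSys chevD4).wt r) ^ 2 = 1) {B : Set (Rt chevD4)}
    [Fintype B] [DecidableEq B] (hB : (rootSys chevD4).IsBase ((rootSys chevD4).Phi t) (Subtype.val : B → Rt chevD4))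
    {S' : StData (hB.sys Subtype.val_injective) K Γ} (T : S'.Twist κ') {ρ w w' : Equiv.Perm (Rt chevD4)}
    (hρ : ∀ r i, (rootSys chevD4).rt (ρ r) (permD4 i) = (rootSys chevD4).rt r i) (hw : w ∈ (rootSys chevD4).W)
    (hw' : w' ∈ (rootSys chevD4).W) (h : ∀ i : B, w' (ρ (w i)) = T.π i) : Nat.card (Blk T) ≤ 2 := by
  obtain ⟨c, hc⟩ := exists_par h2
  obtain ⟨m, hm, hb⟩ := exists_bits c
  obtain h1 | h1 := (Bool.or_eq_true _ _).mp ((allLt_iff _ _).1 chkD4 m hm)
  · obtain ⟨a, -, h1⟩ := (anyLt_iff _ _).1 h1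
    exact card_le_of_two hB T (hc ▸ two_of_chk hb h1)
  by_contra! h3
  set R := rootSys chevD4
  have hA : ∀ i j, R.A (permD4 i) (permD4 j) = R.A i j := fun i j => by
    simp only [R, rootSys_A, A_sm', sm_val']; revert i j; decide +kernel
  have hwt : ∀ r i, R.wt (ρ r) (permD4 i) = R.wt r i := fun r i => by
    rw [RootSys.wt, ← Equiv.sum_comp permD4]; simp only [hA, hρ]; rfl
  have hσ : ∀ i, ρ * R.sp i * ρ⁻¹ = R.sp (permD4 i) := fun i => mul_inv_eq_iff_eq_mul.2 <| Equiv.ext fun r =>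
    R.rt_inj <| funext fun j => by
      obtain ⟨j, rfl⟩ := permD4.surjective j
      simp only [Equiv.Perm.mul_apply, R.sp_apply, hρ, R.rt_σ', Pi.sub_apply, Pi.smul_apply, hwt, R.rt_simple,
        Pi.single_apply, permD4.injective.eq_iff]
  have hN : ∀ v ∈ R.W, ρ * v * ρ⁻¹ ∈ R.W := fun v hv => by
    induction hv using R.W_induction_left with
    | h1 => simp
    | hs j v _ ih => simpa [← hσ, mul_assoc] using mul_mem (R.sp_mem_W (permD4 j)) ih
  have hs : ∀ i, ρ (R.simple i) = R.simple (permD4 i) := fun i => R.rt_inj <| funext fun j => by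
    obtain ⟨j, rfl⟩ := permD4.surjective j
    simp only [hρ, R.rt_simple, Pi.single_apply, permD4.injective.eq_iff]
  have hp : ∀ r s, R.pair (ρ r) (ρ s) = R.pair r s := fun r s => by
    obtain ⟨v, hv, i, rfl⟩ := R.exists_W_simple r
    obtain ⟨s, rfl⟩ := v.surjective s
    have := RootSys.W_pair (hN v hv) (ρ (R.simple i)) (ρ s)
    simp only [Equiv.Perm.mul_apply, Equiv.Perm.coe_inv, Equiv.symm_apply_apply] at this
    rw [this, RootSys.W_pair hv, hs, R.pair_simple, R.pair_simple, hwt]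
  have h4 : Nat.card B ≤ 4 := by
    have := (Fintype.linearIndependent_iff.2 fun g e => congrFun (hB.rt_ext Subtype.val_injective (c := g) (c' := 0)
      (by simpa using e)) : LinearIndependent ℤ fun j : B => R.rt j).fintype_card_le_finrank
    simpa using this.trans (by simp; rfl : _ ≤ 4)
  have h5 := sq_apply_of_card T.π (Quotient.mk _ : B → Blk T) Quotient.mk_surjective
    (fun i => Quotient.sound (.symm _ _ (.rel _ _ (.inr rfl)))) h4 h3
  have h6 : w' * ρ * w * (w' * ρ * w) = 1 := Equiv.ext fun r => by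
    have h7 := (allLt_iff _ _).1 ((allLt_iff _ _).1 h1 _ ((w' * ρ * w * (w' * ρ * w)) r).2) _ r.2
    refine Fin.ext (Nat.eq_of_beq_eq_true (((Bool.or_eq_true _ _).mp h7).resolve_right fun h7 => ?_))
    obtain ⟨k, hk, h7⟩ := (anyLt_iff _ _).1 h7
    rw [Bool.and_eq_true, Bool.not_eq_true', ← Bool.not_eq_true, ieq_iff] at h7
    have h8 : (⟨k, hk⟩ : Rt chevD4) ∈ R.Phi t := hc ▸ (evn_iff hb ⟨k, hk⟩).1 h7.1
    refine h7.2 ((A_eq_pairF ⟨k, hk⟩ _).symm.trans (Eq.trans ?_ (A_eq_pairF ⟨k, hk⟩ r)))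
    rw [← rootSys_pair, ← rootSys_pair, hB.pair_eq ⟨_, h8⟩, hB.pair_eq ⟨_, h8⟩]
    refine Finset.sum_congr rfl fun j _ => congrArg _ ?_
    conv_lhs => rw [← h5 j, ← h, ← h]
    simp only [Equiv.Perm.mul_apply, RootSys.W_pair hw, RootSys.W_pair hw', hp]
  have h7 : ρ * ρ ∈ R.W := by
    have := inv_mem (mul_mem (mul_mem hw' (hN _ (mul_mem hw hw'))) (hN _ (hN _ hw)))
    rwa [show w' * (ρ * (w * w') * ρ⁻¹) * (ρ * (ρ * w * ρ⁻¹) * ρ⁻¹) = w' * ρ * w * (w' * ρ * w) * (ρ * ρ)⁻¹ by group, h6,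
      one_mul, inv_inv] at this
  have h8 := congrArg (· (R.simple ⟨0, by decide⟩)) (RootSys.eq_one_of_isPos h7 fun j => by
    rw [Equiv.Perm.mul_apply, hs, hs]; exact R.isPos_simple _)
  simp only [Equiv.Perm.mul_apply, hs, Equiv.Perm.one_apply] at h8
  exact absurd (sm_injective h8) (by decide)

end CL.IX
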