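/-
Involution centralisers in groups of Lie type, IX: orbits of a diagram symmetry and equivariant characters.
-/
import Cfsg.Agent.KSG.IX.Blk
import Cfsg.Agent.CHEV.SsConj

set_option autoImplicit false

namespace CL.IX

open CL.Chev CL.Chev.StData Finset

variable {ι κ κ' : Type*} [Fintype κ] [DecidableEq κ] {R : RootSys ι κ}

open Classical in
theorem sum_wt [Fintype ι] (R : RootSys ι κ) (J : Set κ) {i : κ} (hi : i ∈ J) :
    ∑ r with R.IsPos r ∧ r ∈ R.sub J, R.wt r i = 2 := by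
  rw [← add_sum_erase _ _ (mem_filter.2 ⟨mem_univ (R.simple i), R.isPos_simple i, R.simple_mem_sub.2 hi⟩),
    R.wt_simple, R.A_self, sum_involution (fun r _ => R.σ i r) (fun r _ => by rw [R.wt_σ_self, add_neg_cancel])
    (fun r _ h e => h (by have := R.wt_σ_self i r; rw [e] at this; omega)) (fun r hr => ?_) (fun r _ => R.σ_σ i r), add_zero]
  simp only [mem_erase, mem_filter, mem_univ, true_and] at hr ⊢
  refine ⟨fun e => ?_, R.isPos_σ hr.2.1 hr.1, (R.σ_mem_sub hi).2 hr.2.2⟩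
  rw [← R.σ_neg_simple i] at e
  exact (R.not_isPos_neg _).2 (R.isPos_simple i) (R.σ_injective i e ▸ hr.2.1)

variable [Finite ι] {Y : R.Sym κ'} (hA : ∀ i j, R.A (Y.π i) (Y.π j) = R.A i j)

omit [Finite ι] in
theorem const_J {α : Type*} {f : κ → α} (h : ∀ i, f (Y.π i) = f i) {a : κ'} {i j : κ} (hi : i ∈ Y.J a) (hj : j ∈ Y.J a) :
    f j = f i := by
  obtain ⟨n, rfl⟩ := Y.trans i j (hi.trans hj.symm)
  exact perm_pow_of_imp Y.π (P := (f · = f i)) (fun k e => (h k).trans e) n rfl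

include hA

/-- the coefficients of the sum of the positive roots of an orbit are at most two -/
theorem sum_rt_le {a : κ'} {s : Finset ι} (hs : ∀ r ∈ s, r ∈ Y.pos a) (j : κ) : ∑ r ∈ s, R.rt r j ≤ 2 := by
  classical
  have := Fintype.ofFinite ι
  let δ : κ → ℤ := fun j => ∑ r with R.IsPos r ∧ r ∈ R.sub (Y.J a), R.rt r j
  refine le_trans (b := δ j) (sum_le_sum_of_subset_of_nonneg (fun r hr => mem_filter.2 ⟨mem_univ r, hs r hr⟩)
    fun r hr _ => (R.isPos_iff r).1 (mem_filter.1 hr).2.1 j) ?_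
  have h0 : ∀ j, j ∉ Y.J a → δ j = 0 := fun j hj => sum_eq_zero fun r hr => (mem_filter.1 hr).2.2 j hj
  have h1 : ∀ i, δ (Y.π i) = δ i := fun i => (sum_equiv Y.ρ (fun r => by
    simp only [mem_filter, mem_univ, true_and]; exact Y.ρ_mem_pos.symm) fun r _ => (Y.rt_ρ hA r i).symm).symm
  by_cases hj : j ∈ Y.J a
  · have h2 := sum_wt R _ hj
    simp only [RootSys.wt] at h2
    rw [sum_comm] at h2
    refine Int.le_of_dvd two_pos (h2 ▸ dvd_sum fun l _ => ?_)
    rw [← mul_sum]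
    by_cases hl : l ∈ Y.J a
    · exact Dvd.dvd.mul_left (const_J h1 hj hl).symm.dvd _
    · exact Dvd.dvd.mul_left (show _ ∣ δ l from h0 l hl ▸ dvd_zero _) _
  · rw [h0 j hj]; exact two_pos.le

theorem add_rt_le {a : κ'} {r s : ι} (hr : r ∈ Y.pos a) (hs : s ∈ Y.pos a) (h : r ≠ s) {j : κ} (h1 : r ≠ R.simple j)
    (h2 : s ≠ R.simple j) : R.rt r j + R.rt s j ≤ 1 := by
  classical
  by_cases hj : j ∈ Y.J a
  · have := sum_rt_le hA (a := a) (s := {R.simple j, r, s}) (by simp [hr, hs, Y.simple_mem_pos hj]) j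
    rw [sum_insert (by simp [h1.symm, h2.symm]), sum_pair h, R.rt_simple, Pi.single_eq_same] at this
    omega
  · simp [hr.2 j hj, hs.2 j hj]

theorem rt_le_one {a : κ'} {r : ι} (hr : r ∈ Y.pos a) (j : κ) : R.rt r j ≤ 1 := by
  classical
  by_cases h : r = R.simple j
  · simp [h, R.rt_simple]
  by_cases hj : j ∈ Y.J a
  · have := sum_rt_le hA (a := a) (s := {R.simple j, r}) (by simp [hr, Y.simple_mem_pos hj]) j
    rw [sum_pair (Ne.symm h), R.rt_simple, Pi.single_eq_same] at this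
    omega
  · simp [hr.2 j hj]

/-- an orbit spanned by a root is a point or of type `A₂` -/
theorem cases_of_top {a : κ'} {γ : ι} (h : γ ∈ Y.pos a) (h1 : ∀ j ∈ Y.J a, R.rt γ j = 1) :
    (∃ i, Y.π i = i ∧ γ = R.simple i) ∨ ∃ i j, i ≠ j ∧ Y.π i = j ∧ Y.π j = i ∧ R.A i j = -1 ∧ R.A j i = -1 ∧
      γ = R.σ i (R.simple j) := by
  by_cases h2 : ∀ i ∈ Y.J a, ∀ l ∈ Y.J a, l ≠ i → R.A l i = 0
  · obtain ⟨i, hi, h3⟩ := exists_mem_sub (P := fun i => {i}) (fun _ _ => rfl)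
      (fun i hi l hl h j e => e ▸ h2 i hi l hl h) h.2
    refine .inl ⟨i, not_not.1 fun e => ?_, (R.mem_sub_singleton.1 h3).resolve_right fun e =>
      (R.not_isPos_neg _).2 (R.isPos_simple i) (e ▸ h.1)⟩
    simpa [h3 _ e] using h1 _ (Y.π_mem_J.2 hi)
  push Not at h2
  obtain ⟨j, hj, i, hi, hij, h2⟩ := h2
  have key : ∀ i ∈ Y.J a, ∀ j ∈ Y.J a, i ≠ j → R.A i j ≠ 0 → R.A i j = -1 ∧ γ = R.σ i (R.simple j) ∧ Y.π i = j := by
    intro i hi j hj hij h2
    have h3 : R.σ i (R.simple j) ∈ Y.pos a := ⟨R.isPos_σ (R.isPos_simple j) fun e => hij (R.simple_injective e).symm,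
      (R.σ_mem_sub hi).2 (R.simple_mem_sub.2 hj)⟩
    have h4 : ∀ l, R.rt (R.σ i (R.simple j)) l = (if l = j then 1 else 0) - if l = i then R.A i j else 0 := fun l => by
      simp [R.rt_σ', R.wt_simple, R.rt_simple, Pi.single_apply]
    have h5 := rt_le_one hA h3 i
    have h6 := R.A_nonpos hij
    have h7 : γ = R.σ i (R.simple j) := not_not.1 fun e => by
      have := add_rt_le hA h h3 e (j := i) (fun e => by simpa [e, R.rt_simple, hij.symm] using h1 j hj)
        fun e => by simpa [e, R.rt_simple, hij.symm] using h4 j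
      simp only [h1 i hi, h4, hij, if_true, if_false] at this
      omega
    simp only [h4, hij, if_true, if_false] at h5
    refine ⟨by omega, h7, not_not.1 fun e => hij ?_⟩
    have h8 := h1 _ (Y.π_mem_J.2 hi)
    rw [h7, h4, if_neg e] at h8
    exact Eq.symm ((const_J (f := (· = i)) (fun l => propext ⟨fun e => Y.π.injective (e.trans (by grind)), by grind⟩)
      hj hi).mp rfl)
  obtain ⟨e1, e2, e3⟩ := key i hi j hj hij h2
  obtain ⟨e4, -, e5⟩ := key j hj i hi hij.symm ((R.A_eq_zero_comm _ _).not.1 h2)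
  exact .inr ⟨i, j, hij, e3, e5, e1, e4, e2⟩

/-- the longest element of an orbit next to a fixed node -/
theorem rt_w {i j : κ} (hi : Y.π i = i) (hij : i ≠ j) (h : R.A j i ≠ 0) {l : κ} (hl : l ∈ Y.J (Y.c j)) :
    R.rt (R.simple i) l - R.rt (Y.w (Y.c j) (R.simple i)) l = R.A j i := by
  have h1 : ∀ l ∈ Y.J (Y.c j), R.A l i = R.A j i ∧ R.A i l = R.A i j ∧ l ≠ i := fun l hl =>
    ⟨const_J (f := (R.A · i)) (fun k => by rw [← hA k, hi]) (Y.mem_J_c j) hl,
      const_J (fun k => by rw [← hA i k, hi]) (Y.mem_J_c j) hl, fun e => hij (const_J (f := (i = ·)) (fun l => propext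
        ⟨fun e => Y.π.injective (hi.trans e), fun e => e ▸ hi.symm⟩) hl (Y.mem_J_c j) ▸ e.symm)⟩
  have h2 : ∀ k ∈ Y.J (Y.c j), ∀ l ∈ Y.J (Y.c j), k ≠ l → R.A k l = 0 := fun k hk l hl e => not_not.1 fun h3 => by
    have := R.A_nonpos hij
    have := R.A_nonpos hij.symm
    have := R.A_nonpos e
    have := R.A_nonpos e.symm
    have := (R.A_eq_zero_comm _ _).not.1 h
    have := (R.A_eq_zero_comm _ _).not.1 h3
    exact not_three R (h1 k hk).2.2.symm (h1 l hl).2.2.symm e (by rw [(h1 k hk).2.1, (h1 l hl).2.1]; omega)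
      (by rw [(h1 k hk).1]; omega) (by rw [(h1 l hl).1]; omega)
  have h3 : Y.w (Y.c j) (R.simple l) = R.neg (R.simple l) := (R.mem_sub_singleton.1 (WJ_mem_sub_of_orth
    (fun k hk e _ e' => e' ▸ h2 k hk l hl e) (Y.w_mem_WJ _) (R.simple_mem_sub.2 rfl))).resolve_left fun e =>
      (Y.w_mem_ngt.2 (Y.simple_mem_pos hl)).1 (e.symm ▸ R.isPos_simple l)
  have h4 := RootSys.W_pair (Y.w_mem_W (Y.c j)) (R.neg (R.simple l)) (R.simple i)
  rw [← h3, Y.w_w, h3, R.pair_neg_left, R.pair_simple_simple, R.pair_simple, RootSys.wt,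
    sum_eq_add_of_mem l i (mem_univ _) (mem_univ _) (h1 l hl).2.2 fun k _ hk => ?_, R.A_self,
    RootSys.WJ_rt_of_not_mem (Y.w_mem_WJ _) _ fun e => (h1 i e).2.2 rfl] at h4
  · simp only [R.rt_simple, Pi.single_apply, (h1 l hl).2.2, (h1 l hl).1, if_true, if_false] at h4 ⊢
    omega
  · by_cases e : k ∈ Y.J (Y.c j)
    · rw [h2 l hl k e hk.1.symm, zero_mul]
    · simp [RootSys.WJ_rt_of_not_mem (Y.w_mem_WJ _) _ e, R.rt_simple, hk.2]

omit hA [Finite ι] in
/-- a generic equivariant character supported on an orbit -/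
theorem exists_chi {K : Type*} [Field K] [IsAlgClosed K] {φ : K →+* K} {q : ℕ} (h : IsFrob φ q) (h2 : (2 : K) ≠ 0) (Y : R.Sym κ')
    (a : κ') : ∃ χ : κ → K, (∀ j, χ j ≠ 0) ∧ (∀ j, χ (Y.π j) = φ (χ j)) ∧ ∀ v, chr χ v = 1 →
      ((∀ j ∈ Y.J a, 0 ≤ v j ∧ v j ≤ 2) → (∀ j ∈ Y.J a, v j = 0) ∨ q = 3 ∧ ∀ j ∈ Y.J a, v j = 2) ∧
        ∀ c, (∀ j ∈ Y.J a, v j = c) → (q - 1 : ℤ) ∣ c := by
  obtain ⟨i, hi⟩ := Y.exists_mem_J a
  set k := orderOf Y.π
  have hk : 0 < k := orderOf_pos _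
  have h3 : 1 < q ^ k := Nat.one_lt_pow hk.ne' h.one_lt
  have : NeZero ((q ^ k - 1 : ℕ) : K) := ⟨by simp [Nat.cast_sub h3.le, h.cast_eq_zero, hk.ne']⟩
  obtain ⟨z, hz⟩ := HasEnoughRootsOfUnity.exists_primitiveRoot K (q ^ k - 1)
  have h0 := hz.ne_zero (by omega)
  have h4 : z ^ q ^ k = z := by rw [← Nat.sub_add_cancel h3.le, pow_succ, hz.pow_eq_one, one_mul]
  have hq : 3 ≤ q := by
    have := h.one_lt
    have := Nat.coprime_two_left.1 (h.coprime (n := 2) h2)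
    grind
  have h5 : ∀ m, (Y.π ^ m) i ∈ Y.J a := fun m => perm_pow_of_imp Y.π (P := (· ∈ Y.J a)) (fun _ => Y.π_mem_J.2) m hi
  have h6 : ∀ j ∈ Y.J a, ∃ m ∈ range k, (Y.π ^ m) i = j := fun j hj =>
    let ⟨m, e⟩ := Y.trans i j (hi.trans hj.symm)
    ⟨_, mem_range.2 (Nat.mod_lt m hk), by rwa [pow_mod_orderOf]⟩
  have h7 : (∑ m ∈ range k, (q : ℤ) ^ m) * (q - 1) = (q ^ k - 1 : ℕ) := by rw [geom_sum_mul, Nat.cast_sub h3.le]; simp
  have h8 : 0 < ∑ m ∈ range k, (q : ℤ) ^ m := sum_pos (fun _ _ => by positivity) (nonempty_range_iff.2 hk.ne')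
  refine ⟨fun j => ∏ m ∈ range k, if (Y.π ^ m) i = j then z ^ q ^ m else 1,
    fun j => prod_ne_zero_iff.2 fun m _ => by split_ifs <;> simp [h0], fun j => ?_, fun v hv => ?_⟩
  · have := (prod_range_succ (fun m => if (Y.π ^ m) i = Y.π j then z ^ q ^ m else 1) k).symm.trans (prod_range_succ' _ k)
    rw [pow_orderOf_eq_one, h4, pow_zero, pow_zero, pow_one] at this
    beta_reduce
    rw [mul_right_cancel₀ (by split_ifs <;> simp [h0]) this, map_prod]
    exact prod_congr rfl fun m _ => by simp [pow_succ' Y.π, apply_ite φ, h.apply, pow_succ q, pow_mul]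
  have h9 : ((q ^ k - 1 : ℕ) : ℤ) ∣ ∑ m ∈ range k, q ^ m * v ((Y.π ^ m) i) := by
    rw [← hz.zpow_eq_one_iff_dvd, ← hv, chr]
    have e : ∀ (p : Prop) [Decidable p] (x : K) (n : ℤ), (if p then x else 1) ^ n = if p then x ^ n else 1 := fun p _ x n => by
      split_ifs <;> simp
    simp only [← prod_zpow, e]
    rw [prod_comm]
    simp only [prod_ite_eq, mem_univ, if_true, ← zpow_natCast, ← zpow_mul, Nat.cast_pow]
    induction range k using Finset.cons_induction with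
    | empty => simp
    | cons _ _ _ ih => rw [sum_cons, prod_cons, zpow_add₀ h0, ih]
  rw [← h7] at h9
  refine ⟨fun h10 => ?_, fun c hc => ?_⟩
  · have h11 : ∀ m ∈ range k, 0 ≤ (q : ℤ) ^ m * v ((Y.π ^ m) i) := fun m _ => mul_nonneg (by positivity) (h10 _ (h5 m)).1
    have h12 : ∀ m ∈ range k, (q : ℤ) ^ m * v ((Y.π ^ m) i) ≤ q ^ m * 2 := fun m _ =>
      mul_le_mul_of_nonneg_left (h10 _ (h5 m)).2 (by positivity)
    refine (sum_nonneg h11).eq_or_lt.imp (fun e j hj => ?_) fun e => ?_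
    · obtain ⟨m, hm, rfl⟩ := h6 j hj
      exact (mul_eq_zero.1 ((sum_eq_zero_iff_of_nonneg h11).1 e.symm m hm)).resolve_left (by positivity)
    have h13 := Int.le_of_dvd e h9
    have h14 := sum_le_sum h12
    obtain rfl : q = 3 := by
      have := le_of_mul_le_mul_left (h13.trans (h14.trans_eq (sum_mul ..).symm)) h8
      omega
    refine ⟨rfl, fun j hj => ?_⟩
    obtain ⟨m, hm, rfl⟩ := h6 j hj
    exact mul_left_cancel₀ (by positivity) ((sum_eq_sum_iff_of_le h12).1 (h14.antisymm ((sum_mul ..).ge.trans h13)) m hm)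
  · simp only [hc _ (h5 _), ← sum_mul] at h9
    exact (mul_dvd_mul_iff_left h8.ne').1 h9

end CL.IX
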