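/-
Involution centralisers in groups of Lie type, X: a block has at most one component.
-/
import Cfsg.Agent.KSG.IX.Orb
import Cfsg.Agent.CHAR.Burnside

set_option autoImplicit false

namespace CL.IX

open CL.Chev CL.Chev.StData CL.GBal CL.KI CL.Comp Subgroup
open scoped commutatorElement

variable {ι κ κ' : Type*} [Fintype κ] [DecidableEq κ] {R : RootSys ι κ} {K Γ : Type*} [Field K] [Group Γ]
  {S : StData R K Γ}

theorem comm_mem {M : Subgroup Γ} {g u : Γ} (hg : g ∈ M) (hu : u ∈ M) : u * (g * u * g⁻¹)⁻¹ ∈ ⁅M, M⁆ := by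
  rw [show u * (g * u * g⁻¹)⁻¹ = ⁅u, g⁆ by rw [commutatorElement_def]; group]
  exact commutator_mem_commutator hu hg

namespace Uni

variable {T : S.Twist κ'} {φ : K →+* K} {q : ℕ} (h : Uni T φ q)
include h

theorem tri (hq : q = 3) {γ : ι} (hγ : T.ρ γ = γ) {t : K} (ht : t ≠ 0) (h1 : S.x γ t ∈ T.Fix) {g : Γ}
    (hg : g ∈ S.XS {γ} ⊓ T.Fix) : g = 1 ∨ g = S.x γ t ∨ g = (S.x γ t)⁻¹ := by
  obtain ⟨ε, -, e⟩ := h.map_x γ
  obtain ⟨s, rfl⟩ := S.mem_X_iff.1 hg.1
  have key : ∀ u, S.x γ u ∈ T.Fix → ε * u ^ 3 = u := fun u hu => h.good.x_injective γ (by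
    rw [← hq, ← h.frob.apply, ← T.mem_Fix.1 hu, e, hγ])
  have h2 := key _ h1
  have h3 := key _ hg.2
  obtain rfl | rfl | rfl : s = 0 ∨ s = t ∨ s = -t := by grind
  exacts [.inl (S.x_zero _), .inr (.inl rfl), .inr (.inr (S.x_neg _ _))]

theorem le_of_mem (hq : q = 3) {γ : ι} (hγ : T.ρ γ = γ) {t : K} (ht : t ≠ 0) (h1 : S.x γ t ∈ ⁅M0 T, M0 T⁆) :
    S.XS {γ} ⊓ T.Fix ≤ ⁅M0 T, M0 T⁆ := fun _ hg => by
  obtain rfl | rfl | rfl := h.tri hq hγ ht ((le_normalizer_iff_commutator_le_right.1 le_normalizer).trans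
    (sup_le inf_le_right inf_le_right) h1) hg
  exacts [one_mem _, h1, inv_mem h1]

theorem x_mem {i : κ} (hi : T.π i = i) : S.x (R.simple i) 1 ∈ M0 T :=
  mem_sup_left ⟨S.x_mem_U (R.isPos_simple i) _, T.mem_Fix.2 (by rw [h.map_pos, hi, map_one])⟩

variable [Finite ι]

theorem solv (hq : q = 3) [Subsingleton κ] (i : κ) : Group.IsSolvable (M0 T) := by
  obtain ⟨n, hn, ha⟩ := h.isTw.exists_n h.good (T.c i)
  have hx := h.x_mem (Subsingleton.elim (T.π i) i)
  have h1 : ∀ g : M0 T ⧸ S.B.subgroupOf (M0 T), ∃ k : Fin 4,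
      (![1, ⟨n, hn.2⟩, ⟨_, hx⟩ * ⟨n, hn.2⟩, ⟨_, hx⟩⁻¹ * ⟨n, hn.2⟩] k : M0 T) = g := fun g => by
    obtain ⟨g, rfl⟩ := QuotientGroup.mk_surjective g
    obtain ⟨v, hv, m, hm, w, hw, hb, u, hu, e⟩ := h.isTw.exists_normal h.good (inv_mem g.2)
    have e1 : (g : Γ) = u⁻¹ * m⁻¹ * v⁻¹ := by rw [← inv_inv (g : Γ), e]; group
    have h2 := S.U_le_B (inv_mem hv.1)
    have h3 : u⁻¹ ∈ S.XS {R.simple i} := inv_mem (S.XS_mono (fun r hr => (R.mem_sub_singleton.1
      fun j hj => absurd (Subsingleton.elim j i) hj).resolve_right fun e => (R.not_isPos_neg _).2 (R.isPos_simple i) (e ▸ hr.1)) hu.1)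
    simp only [QuotientGroup.eq, mem_subgroupOf, Fin.exists_fin_succ]
    obtain rfl | rfl := RootSys.Sym.eq_one_or_w (a := T.c i) hw (by
      rw [Set.eq_univ_of_forall (s := T.J (T.c i)) fun j => Subsingleton.elim j i ▸ T.mem_J_c j, R.WJ_univ]; exact hw.1)
    · exact .inl (by simpa [e1] using mul_mem (mul_mem (S.U_le_B (S.XS_le_U (by simp [R.isPos_simple]) h3))
        (inv_mem (S.H_le_B (h.good.mem_H_of_acts_one hm.1 hb)))) h2)
    have h4 := mul_mem (inv_mem (S.H_le_B (h.good.mem_H_of_acts_one (mul_mem hm.1 hn.1)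
      (T.w_mul_self (T.c i) ▸ hb.mul ha)))) h2
    rcases h.tri hq (by rw [T.ρ_simple, Subsingleton.elim (T.π i) i]) one_ne_zero (h.isTw.le_fix hx)
      ⟨h3, h.isTw.le_fix (inv_mem hu.2)⟩ with e | e | e
    · exact .inr (.inl (by simpa [e1, e, mul_assoc] using h4))
    · exact .inr (.inr (.inl (by simpa [e1, e, mul_assoc] using h4)))
    · exact .inr (.inr (.inr (.inl (by simpa [e1, e, mul_assoc] using h4))))
  have := Finite.of_surjective _ h1
  have : Group.IsSolvable (Equiv.Perm (M0 T ⧸ S.B.subgroupOf (M0 T))) :=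
    Char.isSolvable_of_card_dvd_pow_mul_pow (a := 3) (b := 1) Nat.prime_two Nat.prime_three (by
      rw [Nat.card_perm]; exact Nat.factorial_dvd_factorial (n := 4) (by simpa using Nat.card_le_card_of_surjective _ h1))
  have := S.isSolvable_B
  have : Group.IsSolvable (S.B.subgroupOf (M0 T)) := Group.isSolvable_of_isSolvable_injective
    (f := (M0 T).subtype.subgroupComap S.B) fun _ _ e => Subtype.ext (Subtype.ext (congrArg Subtype.val e :))
  exact Group.isSolvable_of_ker_le_range (S.B.subgroupOf (M0 T)).subtype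
    (MulAction.toPermHom (M0 T) (M0 T ⧸ S.B.subgroupOf (M0 T))) (by rw [← normalCore_eq_ker, range_subtype]; exact normalCore_le _)

variable [IsAlgClosed K] (h2 : (2 : K) ≠ 0)
include h2

theorem a2_le (hq : q = 3) {i j : κ} (hij : i ≠ j) (hi : T.π i = j) (hj : T.π j = i) (h3 : R.A i j = -1) (h4 : R.A j i = -1) :
    S.XS {R.σ i (R.simple j)} ⊓ T.Fix ≤ ⁅M0 T, M0 T⁆ := by
  obtain ⟨hp, h5⟩ := R.a2P_simple hij h3 h4
  obtain ⟨ε, hε, e⟩ := h.good.A2_conj hp
  set γ := R.σ i (R.simple j)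
  have hγ : T.ρ γ = γ := R.rt_inj (by
    rw [T.ρ_σ, T.ρ_simple, hi, hj, (R.a2P_simple hij.symm h4 h3).1.2.1, hp.2.1, add_comm])
  have c1 := fun t u => (S.commute_of_noComb hp.noComb_left t u).symm
  have c2 := fun t u => (S.commute_of_noComb hp.noComb_right t u).symm
  have e1 : ∀ t u, S.x (R.simple j) u * S.x (R.simple i) t = S.x (R.simple i) t * S.x (R.simple j) u * S.x γ (-(ε * t * u)) :=
    fun t u => by rw [S.x_neg, eq_mul_inv_iff_mul_eq, mul_assoc, ← (c1 _ _).eq, ← mul_assoc, ← e, inv_mul_cancel_right]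
  have hm : ∀ t u v t' u' v', S.x (R.simple i) t * S.x (R.simple j) u * S.x γ v * (S.x (R.simple i) t' * S.x (R.simple j) u' * S.x γ v') =
      S.x (R.simple i) (t + t') * S.x (R.simple j) (u + u') * S.x γ (-(ε * t' * u) + (v + v')) := fun t u v t' u' v' => by
    simp only [S.x_add, mul_assoc, (c1 _ _).left_comm, (c2 _ _).left_comm]
    rw [← mul_assoc (S.x (R.simple j) u), e1]
    simp only [mul_assoc, (c2 _ _).left_comm]
  obtain ⟨z, hz, h6⟩ := h.exists_fix (A := {γ}) (y := S.x (R.simple i) 1 * S.x (R.simple j) 1) (by simp [hγ]) (by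
    rw [map_mul, h.map_pos, h.map_pos, hi, hj, map_one, e1, inv_mul_cancel_left]; exact S.x_mem_X _ _)
  obtain ⟨t, rfl⟩ := S.mem_X_iff.1 hz
  have h7 : _ ∈ M0 T := mem_sup_left ⟨mul_mem (mul_mem (S.x_mem_U (R.isPos_simple i) 1) (S.x_mem_U (R.isPos_simple j) 1))
    (S.x_mem_U ((h5 γ).1 (by simp)).1 t), h6⟩
  obtain ⟨l, hl⟩ := IsAlgClosed.exists_eq_mul_self (-1 : K)
  have h8 : l ≠ 0 := by rintro rfl; simp at hl
  obtain ⟨g, hg, h9⟩ := h.exists_h (χ := fun k => if k = i then l else if k = j then -l else 1)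
    (fun k => by split_ifs <;> simp [h8]) fun k => by
      simp only [← T.π.injective.eq_iff (a := k), hi, hj, h.frob.apply, hq]
      grind
  have h10 := h.conj_mem hg h7
  rw [← conj_mul, ← conj_mul, h9, h9, h9, R.rt_simple, R.rt_simple, chr_single, chr_single] at h10
  have := commutator_mem_commutator (inv_mem h7) (inv_mem h10)
  rw [commutatorElement_def, inv_inv, inv_inv, ← mul_inv_rev, mul_assoc, hm, hm, add_comm 1, add_comm 1, mul_inv_rev,
    mul_assoc, inv_mul_cancel_left, ← S.x_neg, ← S.x_add] at this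
  exact h.le_of_mem hq hγ (by grind) this

theorem a1_le (hq : q = 3) {i j : κ} (hi : T.π i = i) (hij : i ≠ j) (h3 : R.A j i ≠ 0) :
    S.XS {R.simple i} ⊓ T.Fix ≤ ⁅M0 T, M0 T⁆ := by
  have hγ : T.ρ (R.simple i) = R.simple i := by rw [T.ρ_simple, hi]
  have h4 := R.A_mul_A_le_three hij
  have h5 := R.A_nonpos hij
  have h6 := R.A_nonpos hij.symm
  have h7 := (R.A_eq_zero_comm _ _).not.1 h3
  by_cases h8 : R.A j i = -2
  · have h9 : R.A i j = -1 := by rw [h8] at h4; omega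
    have hj : T.π j = j := not_not.1 fun e => by
      have := R.A_nonpos e
      have := R.A_nonpos (Ne.symm e)
      have e1 := h.A_π i j
      have e2 := h.A_π j i
      rw [hi] at e1 e2
      exact not_three R hij (fun e => hij (T.π.injective (hi.trans e))) (Ne.symm e) (by omega) (by omega) (by omega)
    have hp := RootSys.b2P_refl ((R.pair_simple_simple j i).trans h8) ((R.pair_simple_simple i j).trans h9)
    obtain ⟨ε, δ, -, hδ, e, -⟩ := h.good.B2_conj hp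
    have h10 := fun t (ht : S.x (R.simple j) t ∈ M0 T) => comm_mem ht (inv_mem (h.x_mem hi))
    simp only [← conj_inv, inv_inv, e, mul_assoc (S.x (R.simple i) 1), inv_mul_cancel_left] at h10
    have h11 := mul_mem (h10 1 (h.x_mem hj)) (h10 (-1) (S.x_neg _ _ ▸ inv_mem (h.x_mem hj)))
    have h12 : S.n (R.simple j) 1 ∈ M0 T := mul_mem (mul_mem (h.x_mem hj) (mem_sup_right ⟨S.x_mem_V
      ((R.not_isPos_neg _).2 (R.isPos_simple j)) _, T.mem_Fix.2 (by simp [T.map_neg, hj])⟩)) (h.x_mem hj)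
    obtain ⟨-, c, hc, e⟩ := S.acts_n (R.simple j) one_ne_zero
    rw [mul_assoc, (S.commute_of_noComb hp.noComb_m_l _ _).symm.left_comm, ← mul_assoc, ← S.x_add, ← S.x_add,
      show ε * 1 * 1 + ε * -1 * 1 = 0 by ring, S.x_zero, one_mul] at h11
    have := (normalizer_commutator_ge_left _ _ h12 _).1 h11
    rw [e, R.refl_refl] at this
    exact h.le_of_mem hq hγ (mul_ne_zero (left_ne_zero_of_mul_eq_one (hc _)) (by grind)) this
  obtain ⟨χ, h0, hχ, h9⟩ := exists_chi h.frob h2 T.toSym (T.c j)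
  obtain ⟨g, hg, e⟩ := h.exists_comm h0 hχ (T.c j)
  have := comm_mem hg (h.x_mem hi)
  rw [e, ← S.x_sub, mul_one] at this
  refine h.le_of_mem hq hγ (sub_ne_zero.2 fun e => ?_) this
  have : 2 ∣ R.A j i := by simpa [hq] using (h9 _ e.symm).2 _ fun l hl => rt_w h.A_π hi hij h3 hl
  have : -4 < R.A j i := by nlinarith [show R.A i j ≤ -1 by omega]
  omega

variable [Finite (M0 T)]

theorem perfect (hi : Irr T) (h3 : q = 3 → Nontrivial κ) : ⁅M0 T, M0 T⁆ = M0 T := by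
  refine h.isTw.commutator_eq h.good le_rfl fun a => ?_
  obtain ⟨χ, h0, hχ, h4⟩ := exists_chi h.frob h2 T.toSym a
  obtain ⟨g, hg, e⟩ := h.exists_comm h0 hχ a
  refine pos_lemma h.good (I := {s ∈ T.pos a | q = 3 ∧ ∀ j ∈ T.J a, R.rt s j = 1}) (fun _ h => h.1) (T.closed_pos a)
    ⟨fun _ h => h.1, fun r hr s hs k hk => ?_⟩ (h.isTw.le_fix hg) e (fun s hs h5 e => ?_) ?_
    fun u hu => comm_mem hg (h.isTw.pos_le a hu)
  · have h5 := T.closed_pos a r hr s hs.1 k hk
    obtain ⟨m, n, hm, hn, e⟩ := hk.coord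
    refine ⟨h5, hs.2.1, fun j hj => ?_⟩
    have := rt_le_one h.A_π h5 j
    have := mul_nonneg (by omega : 0 ≤ m) ((R.isPos_iff r).1 hr.1 j)
    grind
  · have h6 : R.neg (T.w a s) ∈ T.pos a := T.neg_mem_ngt.1 (by rw [R.neg_neg]; exact T.w_mem_ngt.2 hs)
    have h7 := fun j => And.intro (rt_le_one h.A_π hs j) ((R.isPos_iff _).1 hs.1 j)
    have h8 := fun j => And.intro (rt_le_one h.A_π h6 j) ((R.isPos_iff _).1 h6.1 j)
    simp only [R.rt_neg, Pi.neg_apply] at h8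
    have := (h4 _ e).1
    simp only [Pi.sub_apply] at this
    rcases this (by grind) with h9 | h9
    · exact R.rt_ne_zero s (funext fun j => (em (j ∈ T.J a)).elim (fun hj => show _ = (0 : ℤ) by grind) (hs.2 j))
    · exact h5 ⟨hs, h9.1, by grind⟩
  rcases Set.eq_empty_or_nonempty {s ∈ T.pos a | q = 3 ∧ ∀ j ∈ T.J a, R.rt s j = 1} with e | ⟨γ, h5, hq, h6⟩
  · rw [e, S.XS_empty, bot_inf_eq]; exact bot_le
  refine (inf_le_inf_right _ (S.XS_mono (T' := {γ}) fun s hs => R.rt_inj (funext fun j => (em (j ∈ T.J a)).elim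
    (fun hj => (hs.2.2 j hj).trans (h6 j hj).symm) fun hj => (hs.1.2 j hj).trans (h5.2 j hj).symm))).trans ?_
  obtain ⟨i, h7, rfl⟩ | ⟨i, j, h7, h8, h9, h10, h11, rfl⟩ := cases_of_top h.A_π h5 h6
  · have := h3 hq
    obtain ⟨_, rfl, j, hj, h8⟩ := hi {i} (by simpa using h7) ⟨i, rfl⟩ (exists_ne i)
    exact h.a1_le h2 hq h7 (Ne.symm hj) ((R.A_eq_zero_comm _ _).not.1 h8)
  · exact h.a2_le h2 hq h7 h8 h9 h10 h11

theorem subsingleton [Nonempty κ] (hi : Irr T) : {L | IsCompIn L (M0 T)}.Subsingleton := by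
  suffices ∀ L, IsCompIn L (M0 T) → L = M0 T from fun L h1 L' h3 => (this L h1).trans (this L' h3).symm
  intro L hL
  have h3 := h.perfect h2 hi fun hq => (subsingleton_or_nontrivial κ).resolve_left fun _ =>
    hL.not_le_of_isSolvable (h.solv hq (Classical.arbitrary κ)) hL.le
  exact hL.le.antisymm (h.mono hi L hL.le ((h.mono hi _ (layerOf_le _) (le_normalizer_layerOf _)
    (fun e => hL.ne_bot (le_bot_iff.1 (e ▸ hL.le_layerOf))) _ le_rfl h3).trans hL.layerOf_le_normalizer) hL.ne_bot _ le_rfl h3)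

end Uni

end CL.IX
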