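/-
Involution centralisers in groups of Lie type, XI: at most two components.
-/
import Cfsg.Agent.KSG.IX.Perf
import Cfsg.Agent.KSG.IX.Count

set_option autoImplicit false

namespace CL.IX

open CL.Chev CL.KI Cfsg.Lie Cfsg.Lie.ChevalleyDatum

variable {D : ChevalleyDatum} [Good D] {F : Type} [Field F] (p : ℕ) [hp : Fact p.Prime] [CharP F p] (h2 : p ≠ 2)
  {G : Type*} [Group G]
include h2

theorem Uni.subsingleton_blk {ι κ κ' Γ : Type*} [Finite ι] [Fintype κ] [DecidableEq κ] {R : RootSys ι κ} [Group Γ]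
    {S : StData R (AlgebraicClosure F) Γ} {T : S.Twist κ'} {φ : _ →+* _} {q : ℕ} (h : Uni T φ q) [Finite T.Fix] (b : Blk T) :
    {L | CL.Comp.IsCompIn L (M0 (b.tw h.good))}.Subsingleton :=
  have : Finite (M0 (b.tw h.good)) := Finite.of_injective (β := T.Fix) _ (Subgroup.inclusion_injective (h.blk b).isTw.le_fix)
  (h.blk b).subsingleton (fun e => h2 ((Nat.prime_dvd_prime_iff_eq hp.out Nat.prime_two).1
    ((CharP.cast_eq_zero_iff (AlgebraicClosure F) p 2).1 e))) (b.irr _)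

theorem All.le (hD : D ∈ [chevG2, chevF4, chevE6, chevE7, chevE8]) {π : Equiv.Perm (Fin D.rank)}
    (h : All D π (AlgebraicClosure F) G) : AllLe G 2 := fun t ht => by
  obtain ⟨_, _, _, -, h⟩ := h
  obtain ⟨-, _, _, _, _, hB, _, _, _, _, T, h, _, h3, -, -, h4⟩ := h t ht
  exact (h4 (h.subsingleton_blk p h2)).trans (card_blk_le hD h3 hB T)

theorem All.le_D4 (h : All chevD4 permD4 (AlgebraicClosure F) G) : AllLe G 2 := fun t ht => by
  obtain ⟨_, _, _, hρ, h⟩ := h
  obtain ⟨-, _, _, _, _, hB, _, _, _, _, T, h, _, h3, -, ⟨_, hw, _, hw', e⟩, h4⟩ := h t ht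
  exact (h4 (h.subsingleton_blk p h2)).trans (card_blk_le_D4 h3 hB T hρ hw hw' e)

end CL.IX
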