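/-
Groups of even type: a large component in the centraliser of a diagonal involution.
-/
import Cfsg.Agent.KSG.IX.Fin

set_option autoImplicit false

namespace CL.IX

open Cfsg CL.Chev CL.Chev.StData CL.GBal CL.HB CL.KI CL.Comp Subgroup
open scoped commutatorElement

universe u

theorem concl2 {G X Γ : Type*} [Group G] [Group X] [Group Γ] {H : Subgroup G} {a : X →* G} {θ : X →* Γ}
    {D : Subgroup Γ} (hle : D ≤ θ.range) (hn : θ.range ≤ normalizer (D : Set Γ)) (hm : Mono D) (h1 : a.ker ≤ θ.ker)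
    (h2 : θ.ker ≤ center X) (h3 : a.range ≤ H) (h4 : ∀ g ∈ H, g * g ∈ a.range) (h5 : ⁅D, D⁆ = D) (h6 : D ≠ ⊥) :
    ∃ K, IsCompIn K H ∧ Nat.card D ∣ Nat.card (K ⧸ center K) := by
  let θ' := a.rangeRestrict.liftOfSurjective a.rangeRestrict_surjective ⟨θ, by rwa [MonoidHom.ker_rangeRestrict]⟩
  have e : ∀ x, θ' (a.rangeRestrict x) = θ x := MonoidHom.liftOfRightInverse_comp_apply _ _ _ _
  have e1 : θ'.range = θ.range := Subgroup.ext fun y => ⟨fun ⟨x, hx⟩ => let ⟨x, hx'⟩ := a.rangeRestrict_surjective x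
    ⟨x, by rw [← e, hx', hx]⟩, fun ⟨x, hx⟩ => ⟨_, (e x).trans hx⟩⟩
  have e2 : θ'.ker ≤ center _ := fun x hx => mem_center_iff.2 fun y => by
    obtain ⟨x, rfl⟩ := a.rangeRestrict_surjective x
    obtain ⟨y, rfl⟩ := a.rangeRestrict_surjective y
    rw [← map_mul, ← map_mul, mem_center_iff.1 (h2 ((e x).symm.trans hx))]
  have c2 : H ≤ normalizer (a.range : Set G) :=
    le_normalizer_iff_commutator_le_right.2 ((commutator_mono le_rfl h3).trans (commutator_le_of_sq h4))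
  rw [← e1] at hle hn
  have : (D.comap θ').Normal := ⟨fun n h g => by simpa using (mem_normalizer_iff.1 (hn ⟨g, rfl⟩) _).1 h⟩
  set L := ⁅D.comap θ', D.comap θ'⁆
  have l1 : L.map θ' = D := by rw [map_commutator, map_comap_eq_self hle, h5]
  have l2 : ⁅L, L⁆ = L := (commutator_le_right L L).antisymm (by
    rw [← commutator_sup_central (C := θ'.ker) (e2.trans (center_le_centralizer _)), ← comap_map_eq, l1])
  have l3 : ∀ N ≤ D, D ≤ normalizer (N : Set Γ) → N = D ∨ N = ⊥ := fun N n1 n2 =>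
    or_iff_not_imp_right.2 fun n3 => n1.antisymm (hm N n1 n2 n3 D le_rfl h5)
  have l4 := (isCompIn_map_subtype.2 (isCompIn_top.1 (isCompIn_of_le_normalizer le_top (normalizer_eq_top L).ge
    (.of_map θ' l2 (l1.symm ▸ isQuasisimple_subgroup_iff.2 ⟨h5, h6, fun N n1 n2 => (l3 N n1 n2).imp_right (·.le.trans bot_le)⟩)
      (inf_le_left.trans (e2.trans (center_le_centralizer _))))))).trans_of_le_normalizer h3 c2
  let f := θ'.comp (inclusion (map_subtype_le L))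
  have f1 : f.range = D := l1 ▸ Subgroup.ext fun y => ⟨fun ⟨⟨_, x, hx, rfl⟩, e⟩ => ⟨x, hx, e⟩, fun ⟨x, hx, e⟩ => ⟨⟨_, x, hx, rfl⟩, e⟩⟩
  have f2 := (l3 (D ⊓ centralizer D) inf_le_left (le_trans (le_inf le_normalizer (le_normalizer.trans
    (normalizer_le_normalizer_centralizer D))) inf_normalizer_le_normalizer_inf)).resolve_left fun e =>
      h6 (h5.symm.trans (commutator_eq_bot_iff_le_centralizer.2 (e.ge.trans inf_le_right)))
  refine ⟨_, l4, (card_dvd_of_le ?_).trans (card_range_dvd (QuotientGroup.lift _ f fun z hz => mem_bot.1 (f2.le ⟨f1.le ⟨z, rfl⟩,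
    fun y hy => ?_⟩)))⟩
  · exact f1.ge.trans fun _ ⟨x, e⟩ => ⟨x, e⟩
  · obtain ⟨y, rfl⟩ := f1.ge hy
    rw [← map_mul, ← map_mul, mem_center_iff.1 hz]

variable {ι κ κ' : Type*} [Fintype κ] [DecidableEq κ] {R : RootSys ι κ} [Finite ι] {K : Type*} {Γ : Type u} [Field K] [Group Γ]
  {G1 G : Type*} [Group G1] [Group G] {S : StData R K Γ} {q : ℕ} [IsAlgClosed K]

theorem Uni.card_U {T : S.Twist κ'} {φ : K →+* K} (h : Uni T φ q) (h1 : ∀ i, T.π (T.π i) = i)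
    (h2 : ∀ i, T.π i ≠ i → R.A i (T.π i) = 0) : Nat.card (S.U ⊓ M0 T : Subgroup Γ) = q ^ {r | R.IsPos r}.ncard := by
  rw [← h.isTw.card_U_pow h.good (d := 1) fun a => ?_, pow_one]
  obtain ⟨i, rfl⟩ := T.c_surj a
  have hJ : T.J (T.c i) = {i, T.π i} := Set.Subset.antisymm (fun j hj => by
    obtain ⟨n, rfl⟩ := T.trans i j hj.symm
    exact perm_pow_of_imp T.π (P := (· ∈ ({i, T.π i} : Set κ))) (by rintro _ (rfl | rfl) <;> simp [h1]) n (.inl rfl))
    (by rintro _ (rfl | rfl); exacts [rfl, T.c_π i])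
  by_cases e : T.π i = i
  · rw [e, Set.pair_eq_singleton] at hJ
    rw [T.cJ_one h.good hJ, T.ncard_pos_one hJ, h.f, h.frob.card_fixed]
  have hp := T.pos_two hJ (h2 i e)
  have hc := fun t u => (commute_orth (Ne.symm e) (h2 i e) (S.x_mem_sub_self R.isSgn_pos _ t) (S.x_mem_sub_self R.isSgn_pos _ u)).eq
  rw [T.ncard_pos_two hJ (Ne.symm e) (h2 i e), pow_one, ← (h.frob.pow two_pos).card_fixed]
  refine (Nat.card_eq_of_bijective (β := (S.XS (T.pos (T.c i)) ⊓ T.Fix : Subgroup Γ)) (fun t : {c // (φ ^ 2) c = c} => ⟨S.x (R.simple i) t.1 * S.x (R.simple (T.π i)) (φ t.1), (S.XS _).mul_mem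
    (S.x_mem_XS (by simp [hp]) _) (S.x_mem_XS (by simp [hp]) _), T.mem_Fix.2 (by
      rw [map_mul, h.map_pos, h.map_pos, h1, ← hc]; exact congrArg (S.x _ · * _) t.2)⟩)
    ⟨fun t u e' => Subtype.ext (Twist.cancel_two h.good (Ne.symm e) (congrArg Subtype.val e' :)).1, fun ⟨g, g1, g2⟩ => ?_⟩).symm
  obtain ⟨t, -, rfl⟩ := S.exists_prodL (R.nilp_pos fun r hr => hr.1) (T.closed_pos _)
    (L := [R.simple i, R.simple (T.π i)]) (by simp [hp]) (by simp [R.simple_injective.eq_iff, Ne.symm e]) g1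
  have h3 := T.mem_Fix.1 g2
  simp only [prodL_cons, prodL_nil, mul_one] at h3
  rw [map_mul, h.map_pos, h.map_pos, h1, ← hc] at h3
  obtain ⟨h4, h5⟩ := Twist.cancel_two h.good (Ne.symm e) h3
  exact ⟨⟨t (R.simple i), by simp [sq, h5, h4]⟩, Subtype.ext (by simp [prodL_cons, prodL_nil, h5])⟩

section

variable {σ τ : MulAut Γ} {φ : K ≃+* K} {ρ : Equiv.Perm ι} {c : ι → K}
  (A : S.Alg φ q (toEnd σ)) (p : ℕ) [hp : Fact p.Prime] [CharP K p] (h2 : p ≠ 2)
  {pr : G1 →* G} (hpr : Function.Surjective pr)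
include A h2 hpr

theorem core2 {ψ : G1 →* Γ} (hψ : Function.Injective ψ) (hker : ∀ z, pr z = 1 → ψ z ∈ center Γ)
    (hτ : Mon S τ ρ c φ) (hf : FL σ τ) (hfix : ∀ y, y ∈ ψ.range ↔ τ y = y) {s : G1} {t : κ → Kˣ}
    (hs : ψ s = A.r3.torHom t) (s2 : pr (s * s) = 1) (ρ1 : ∀ r, R.IsPos (ρ r) → R.IsPos r) (ρ2 : ∀ r, ρ (ρ r) = r)
    (ρ3 : ∀ r, ρ r ≠ r → R.pair r (ρ r) = 0) {r0 : ι} (h0 : r0 ∈ R.Phi t) {E : Set ι} (hE : ∀ r ∈ E, R.IsPos r ∧ r ∈ R.Phi t ∧
      ∃ s ∈ R.Phi t, R.pair r s ≠ 0 ∧ R.pair s r0 ≠ 0) (hE2 : 1 < E.ncard) :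
    ∃ L, IsCompIn L (C (pr s)) ∧ q ^ E.ncard ∣ Nat.card (L ⧸ center L) := by
  classical
  have hc : ∀ u r, r ∈ R.Phi u ↔ A.r3.torHom u * S.x r 1 = S.x r 1 * A.r3.torHom u := fun u r => by
    rw [← A.r3.x_comm_torHom_iff A.good u r one_ne_zero, mul_inv_eq_iff_eq_mul]
  have τs : τ (A.r3.torHom t) = A.r3.torHom t := hs ▸ (hfix _).1 ⟨s, rfl⟩
  have hρ := perm_iff_of_imp ρ (P := (· ∈ R.Phi t)) fun r hr => (A.r3.x_comm_torHom_iff A.good t _
    (u := c r * φ 1) (by simpa using hτ.c_ne r)).1 (by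
      rw [← hτ.x, ← τs, ← map_inv, ← map_mul, ← map_mul, (hc t r).1 hr, mul_inv_cancel_right])
  obtain ⟨B, hB⟩ := RootSys.exists_isBase (RootSys.refl_mem_Phi (R := R) t)
  have := Fintype.ofFinite B
  have hi : Function.Injective (Subtype.val : B → ι) := Subtype.val_injective
  set L := S.XS (R.Phi t)
  set M := centralizer {A.r3.torHom t}
  have hM : M = L ⊔ S.H := A.centralizer_torHom t
  have LM : L ≤ M := hM ▸ le_sup_left
  have HM : S.H ≤ M := hM ▸ le_sup_right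
  let S1 := S.ofBase hB hi (RootSys.closed_Phi t)
  let S2 := S1.comap L.subtype L.subtype_injective (fun r u => ⟨S.x r u, S.x_mem_XS r.2 u⟩) fun _ _ => rfl
  have e1 : S2.map L.subtype = S1 := S1.comap_map ..
  have g1 : S1.Good := A.good.ofBase ..
  have g2 : S2.Good := .of_map _ (e1 ▸ g1)
  have top : S2.grp = ⊤ := map_injective L.subtype_injective (by
    rw [map_grp, e1, ofBase_grp, ← MonoidHom.range_eq_map, range_subtype])
  have HZ : ∀ a : M, a.1 ∈ S.H → (∀ x ∈ L, x * a = a * x) → a ∈ center M := fun a ha h => mem_center_iff.2 fun m =>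
    Subtype.ext (mem_centralizer_singleton_iff.1 (hM.le.trans (sup_le (fun x hx => mem_centralizer_singleton_iff.2 (h x hx))
      fun b hb => mem_centralizer_singleton_iff.2 (by
        obtain ⟨b, rfl⟩ := A.r3.range_torHom.ge hb
        obtain ⟨a, e⟩ := A.r3.range_torHom.ge ha
        rw [← e, ← map_mul, ← map_mul, mul_comm])) m.2))
  have dec : ∀ m : M, ∃ l : L, ∃ z ∈ center M, z.1 ∈ S.H ∧ m = inclusion LM l * z := fun m => by
    obtain ⟨l, hl, a, ha, e⟩ := (coe_mul_of_right_le_normalizer_left L S.H (S.H_le_normalizer_XS _)).le (hM.le m.2)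
    obtain ⟨χ, h0, h1⟩ := S.exists_chr_of_mem_H ha
    obtain ⟨b, hb, h3⟩ := exists_diag g1 (fun j => chr χ (R.rt j)) fun j => chr_ne_zero h0 _
    have h4 : (MulAut.conj b).toMonoidHom.comp L.subtype = (MulAut.conj a).toMonoidHom.comp L.subtype :=
      S2.hom_ext_simple' top (fun j u => (h3.pos j u).trans (h1 j u).symm)
        fun j u => (h3.neg j u).trans (by rw [← chr_neg, ← R.rt_neg]; exact (h1 _ u).symm)
    have h5 := S.ofBase_H_le _ _ _ hb
    have h6 : b ∈ L := (S.ofBase_grp hB hi _).le (S1.H_le_grp hb)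
    refine ⟨⟨l * b, mul_mem hl h6⟩, ⟨b⁻¹ * a, HM (mul_mem (inv_mem h5) ha)⟩, HZ _ (mul_mem (inv_mem h5) ha) fun x hx => ?_,
      mul_mem (inv_mem h5) ha, Subtype.ext (by simp [← e])⟩
    have : b * x * b⁻¹ = a * x * a⁻¹ := DFunLike.congr_fun h4 ⟨x, hx⟩
    exact show x * (b⁻¹ * a) = b⁻¹ * a * x by rw [mul_assoc, mul_inv_eq_iff_eq_mul.1 this.symm]; group
  let θ := (QuotientGroup.mk' (center M)).comp (inclusion LM)
  have LH : ∀ x ∈ center L, x.1 ∈ S.H := fun x hx => S.ofBase_H_le hB hi _ (by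
    have := mem_map_of_mem L.subtype (g2.center_le_H top hx)
    rwa [map_H, e1] at this)
  have Q : SubQ L.subtype θ := ⟨L.subtype_injective, fun m => by
    obtain ⟨m, rfl⟩ := QuotientGroup.mk_surjective m
    obtain ⟨l, z, h1, -, rfl⟩ := dec m
    exact ⟨l, QuotientGroup.eq.2 (by simpa using h1)⟩, Subgroup.ext fun x => (QuotientGroup.eq_one_iff _).trans
      ⟨fun h => mem_center_iff.2 fun y => inclusion_injective LM (by simpa using mem_center_iff.1 h (inclusion LM y)),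
        fun h => HZ _ (LH x h) fun y hy => congrArg Subtype.val (mem_center_iff.1 h ⟨y, hy⟩)⟩⟩
  have ZH : ∀ z ∈ center M, z.1 ∈ S.H := fun z hz => by
    obtain ⟨l, z', h1, h3, rfl⟩ := dec z
    exact mul_mem (LH l (Q.ker ▸ (QuotientGroup.eq_one_iff _).2 ((mul_mem_cancel_right h1).1 hz))) h3
  obtain ⟨n, _, _, j, j1, j2, j3⟩ := A.rep
  obtain ⟨N, hN, σ', I1, A'⟩ := exists_algA g2 top Q (σ := σ) A.frob (fun r => A.fe r) j1 (fun r => j2 r) j3
  obtain ⟨τ', I2⟩ := Q.exists_ind (s := τ) (fun x => ⟨⟨_, hτ.mem_XS (fun r => (hρ r).2) x.2⟩, rfl⟩)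
    fun x => ⟨⟨_, hτ.inv.mem_XS (fun r hr => (hρ _).1 (by rwa [RootSys.perm_apply_inv])) x.2⟩, rfl⟩
  have fl : FL σ' τ' := by
    obtain ⟨m, k, hm, hk, e⟩ := hf
    refine ⟨m * N, k, by positivity, hk, Q.unique (I2.pow _) ?_⟩
    rw [pow_mul, e, ← pow_mul, mul_comm, pow_mul]; exact I1.pow k
  have mon : Mon (S2.map θ) τ' (ρ.subtypePerm hρ) (fun r => c r) φ :=
    ⟨linP_sys hB hi hτ.lin hρ, fun r => hτ.c_neg r, fun r u => Q.apply I2 (hτ.x r u)⟩
  obtain ⟨y, π, T, h, fin, cp, w, hw, hπ⟩ := exists_pin A' mon A.frob fl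
  have hm : ∀ a : MulAut Γ, a (A.r3.torHom t) = A.r3.torHom t → ∀ m : M, a m ∈ M := fun a ha m =>
    mem_centralizer_singleton_iff.2 (by rw [← ha, ← map_mul, ← map_mul, mem_centralizer_singleton_iff.1 m.2])
  let τM : M →* M := (τ.toMonoidHom.comp M.subtype).codRestrict M (hm τ τs)
  let θM := (MulAut.conj y).toMonoidHom.comp (QuotientGroup.mk' (center M))
  have k1 : θM.ker = center M := by rw [MonoidHom.ker_comp_of_injective _ _ (MulEquiv.injective _), QuotientGroup.ker_mk']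
  have k2 : ∀ m, θM (τM m) = T.σ (θM m) := fun m => by
    obtain ⟨l, z, h1, -, rfl⟩ := dec m
    obtain ⟨l', h3, h4⟩ := I2 l
    have h5 : τM z ∈ θM.ker := k1.ge (mem_center_iff.2 fun m => Subtype.ext (τ⁻¹.injective (by
      simpa [τM] using congrArg Subtype.val (mem_center_iff.1 h1 ⟨_, hm τ⁻¹ (τ.symm_apply_eq.2 τs.symm) m⟩))))
    rw [map_mul, map_mul, map_mul, h5, (k1.ge h1 : θM z = 1), mul_one, mul_one,
      show τM (inclusion LM l) = inclusion LM l' from Subtype.ext h3.symm]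
    exact (congrArg (y * · * y⁻¹) h4).trans (cp _).symm
  let X := centralizer {s}
  have hX : ∀ g, g ∈ X ↔ ψ g ∈ M := fun g => by
    rw [mem_centralizer_singleton_iff, mem_centralizer_singleton_iff, ← hs, ← map_mul, ← map_mul, hψ.eq_iff]
  let ψX : X →* M := (ψ.comp X.subtype).codRestrict M fun g => (hX g).1 g.2
  have k3 : ∀ u ∈ T.Fix, (∃ k, u ^ p ^ k = 1) → u ∈ (θM.comp ψX).range := fun u hu ⟨k, hk⟩ => by
    obtain ⟨m, h1, rfl⟩ := exists_fixed_lift hp.out ((MulAut.conj y).surjective.comp (QuotientGroup.mk'_surjective _)) k1.le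
      (fun z h1 => by
        have := A.cast_orderOf_ne_zero (ZH z (k1.le h1))
        rwa [orderOf_coe, Ne, CharP.cast_eq_zero_iff K p, ← hp.out.coprime_iff_not_dvd, Nat.coprime_comm] at this) k2 hk hu
    obtain ⟨g, e⟩ := (hfix m).2 (congrArg Subtype.val h1)
    exact ⟨⟨g, (hX g).2 (e ▸ m.2)⟩, congrArg θM (Subtype.ext e)⟩
  have k4 : ∀ z ∈ (θM.comp ψX).ker, ψX z ∈ center M := fun z hz => k1.le hz
  have P := h.prod p h2 A'.top (Y := (θM.comp ψX).range) (sup_le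
    (fun u hu => k3 u hu.2 ((isPGroup_U p ⟨u, hu.1⟩).imp fun _ => congrArg Subtype.val))
    fun u hu => k3 u hu.2 ((isPGroup_U (S := (S2.map θ).opp) p ⟨u, (opp_U _).ge hu.1⟩).imp fun _ => congrArg Subtype.val)) (by
      rintro _ ⟨g, rfl⟩
      exact (k2 _).symm.trans (congrArg θM (Subtype.ext ((hfix _).1 ⟨g, rfl⟩))))
  have hπ' : ∀ i : B, (T.π i : ι) = ρ i := fun i => by
    obtain rfl := RootSys.eq_one_of_isPos hw fun j => (hB.sys_isPos hi _).2 (ρ1 _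
      ((congrArg (R.IsPos ·.1) (hπ j)).mpr (hB.pos _)))
    exact (congrArg Subtype.val (hπ i)).symm
  choose g hg using Blk.exists_mem T
  have key : ∀ {x y : Blk T} {r s : R.Phi t}, r ∈ (hB.sys hi).sub x.J → s ∈ (hB.sys hi).sub y.J → R.pair r s ≠ 0 → x = y :=
    fun hr hs e => not_not.1 fun e' => e <| (hB.sys_pair _ _ _).symm.trans <| pair_eq_zero_of_sub
      (fun i hi j hj => Blk.A_eq hj fun h => e' (h.symm.trans hi).symm |>.elim) hr hs
  let b := g ⟨r0, h0⟩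
  have hb := h.blk b
  have e2 : E.ncard ≤ {r | ((hB.sys hi).restrict b.J).IsPos r}.ncard := by
    rw [← Set.ncard_image_of_injective _ (Subtype.val_injective.comp Subtype.val_injective)]
    refine Set.ncard_le_ncard fun r hr => ?_
    obtain ⟨h1, h3, s, h4, h5, h6⟩ := hE r hr
    exact ⟨⟨⟨r, h3⟩, (show _ = b from (key (hg ⟨r, h3⟩) (hg ⟨s, h4⟩) h5).trans (key (hg ⟨s, h4⟩) (hg ⟨r0, h0⟩) h6)) ▸ hg ⟨r, h3⟩⟩,
      ((hB.sys hi).restrict_isPos _ _).2 ((hB.sys_isPos hi _).2 h1), rfl⟩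
  have e3 := hb.card_U (fun i => Subtype.ext (Subtype.ext ((hπ' _).trans ((congrArg ρ (hπ' _)).trans (ρ2 _)))))
    fun i e => (congrArg (R.pair _) (hπ' i)).trans (ρ3 _ fun e' => e (Subtype.ext (Subtype.ext ((hπ' _).trans e'))))
  have : Finite (M0 (b.tw h.good)) := Finite.of_injective (β := T.Fix) _ (inclusion_injective hb.isTw.le_fix)
  have e4 := (pow_dvd_pow q e2).trans (e3 ▸ card_dvd_of_le inf_le_right)
  refine Exists.imp (fun _ => And.imp_right e4.trans) (concl2 (H := C (pr s)) (a := pr.comp X.subtype) (P.le b) (P.norm b) (P.mono b)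
    (fun g hg => k1.ge (mem_center_iff.2 fun m => Subtype.ext (mem_center_iff.1 (hker g hg) m)))
    (fun z hz => mem_center_iff.2 fun g => Subtype.ext (hψ (by
      rw [coe_mul, coe_mul, map_mul, map_mul]; exact congrArg Subtype.val (mem_center_iff.1 (k4 z hz) (ψX g)))))
    (by rintro _ ⟨g, rfl⟩; exact mem_C.2 (by simpa using congrArg pr (mem_centralizer_singleton_iff.1 g.2))) (fun g hg => by
      obtain ⟨g, rfl⟩ := hpr g
      have h1 := mem_center_iff.1 (hker (g * s * g⁻¹ * s⁻¹) (by simp [mem_C.1 hg]))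
      have h3 := mem_center_iff.1 (hker _ s2)
      refine ⟨⟨g * g, mem_centralizer_singleton_iff.2 (hψ ?_)⟩, by simp⟩
      simp only [map_mul, map_inv] at h1 h3 ⊢
      generalize ψ g = a, ψ s = b at h1 h3
      calc a * a * b = (a * (a * b * a⁻¹ * b⁻¹)) * b * a := by group
        _ = b⁻¹ * (b * (a * b * a⁻¹ * b⁻¹)) * a * b * a := by rw [h1]; group
        _ = b⁻¹ * (a * (b * b) * a⁻¹) * (a * a) := by rw [h1]; group
        _ = _ := by rw [h3]; group)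
    (hb.perfect (fun e => h2 ((Nat.prime_dvd_prime_iff_eq hp.out Nat.prime_two).1 ((CharP.cast_eq_zero_iff K p 2).1 e)))
      (b.irr _) fun _ => (subsingleton_or_nontrivial _).resolve_left fun _ => (hE2.trans_le e2).not_ge
        (Set.ncard_le_one_iff_subsingleton.2 fun r hr r' hr' => ?_))
    fun e => by
      rw [e, card_bot, Nat.dvd_one, pow_eq_one_iff] at e4
      have := hb.frob.one_lt
      omega)
  obtain ⟨i⟩ := (inferInstance : Nonempty b.J)
  have h1 : ∀ r, ((hB.sys hi).restrict b.J).IsPos r → r = ((hB.sys hi).restrict b.J).simple i := fun r hr =>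
    ((RootSys.mem_sub_singleton _).1 fun j hj => absurd (Subsingleton.elim j i) hj).resolve_right fun e =>
      (RootSys.not_isPos_neg _ _).2 (RootSys.isPos_simple _ i) (e ▸ hr)
  exact (h1 r hr).trans (h1 r' hr').symm

end

theorem main2 {φ : K →+* K} {σ τ : Monoid.End Γ} (A : S.Alg φ q σ) (p : ℕ) [hp : Fact p.Prime] [CharP K p]
    (h2 : p ≠ 2) (hτ : ∃ m k, 0 < m ∧ 0 < k ∧ τ ^ m = σ ^ k) {π : Equiv.Perm κ}
    (h1 : ∀ i t, τ (S.x (R.simple i) t) = S.x (R.simple (π i)) (φ t))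
    (h1' : ∀ i t, τ (S.x (R.neg (R.simple i)) t) = S.x (R.neg (R.simple (π i))) (φ t)) (hA : ∀ i j, R.A (π i) (π j) = R.A i j)
    {ψ : G1 →* Γ} (hψ : Function.Injective ψ) (hfix : ∀ y, y ∈ ψ.range ↔ τ y = y) {pr : G1 →* G}
    (hpr : Function.Surjective pr) (hker : ∀ z, pr z = 1 → ψ z ∈ center Γ) (π2 : ∀ i, π (π i) = i)
    (π3 : ∀ r s, (∀ i, R.rt s (π i) = R.rt r i) → s ≠ r → R.pair r s = 0) {t : κ → Kˣ} (t1 : ∀ i, (t (π i) : K) = φ (t i))
    (t2 : t ^ 2 = 1) (t3 : ∃ r, r ∉ R.Phi t) {r0 : ι} (h0 : r0 ∈ R.Phi t) {E : Set ι} (hE : ∀ r ∈ E, R.IsPos r ∧ r ∈ R.Phi t ∧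
      ∃ s ∈ R.Phi t, R.pair r s ≠ 0 ∧ R.pair s r0 ≠ 0) (hE2 : 1 < E.ncard) :
    ∃ s : G, orderOf s = 2 ∧ ∃ L, IsCompIn L (C s) ∧ q ^ E.ncard ∣ Nat.card (L ⧸ center L) := by
  obtain ⟨s, hs⟩ := (hfix (A.r3.torHom t)).2 (((A.good.twist τ π (fun _ => φ) h1 h1').map_torHom A.r3 t).trans
    (congrArg _ ((Twist.mem_Tσ _).2 t1)))
  have s2 : s ^ 2 = 1 := hψ (by rw [map_pow, hs, ← map_pow, t2, map_one, map_one])
  have key : ∀ τ : Monoid.End Γ, (∃ m k, 0 < m ∧ 0 < k ∧ τ ^ m = σ ^ k) → ∃ s, toEnd s = τ := fun τ hτ =>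
    ⟨MulEquiv.ofBijective τ ⟨A.injective_of_pow hτ, fun g => by
      obtain ⟨_ | N, hN, e⟩ := A.exists_fixed_of_pow hτ g
      exacts [absurd hN (lt_irrefl _), ⟨_, by rwa [pow_succ'] at e⟩]⟩, rfl⟩
  obtain ⟨σ, rfl⟩ := key σ ⟨1, 1, one_pos, one_pos, rfl⟩
  obtain ⟨τ, rfl⟩ := key τ hτ
  obtain ⟨φ, rfl⟩ : ∃ φ' : K ≃+* K, φ' = φ := ⟨.ofBijective φ ⟨φ.injective, fun g => by
    obtain ⟨_ | N, hN, e⟩ := A.frob.alg g
    exacts [absurd hN (lt_irrefl _), ⟨_, by rwa [pow_succ'] at e⟩]⟩, rfl⟩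
  obtain ⟨ρ, c, h4, h5⟩ := mon_of_apin A.good (θ := τ) (c := 1) (φ := φ) ⟨fun _ => one_ne_zero, fun i t => (h1 i t).trans (by simp),
    fun i t => (h1' i t).trans (by simp)⟩ hA
  obtain ⟨m, k, hm, hk, e⟩ := hτ
  refine ⟨pr s, orderOf_eq_prime (by rw [← map_pow, s2, map_one]) fun e => ?_, core2 A p h2 hpr hψ hker h4
    ⟨m, k, hm, hk, MulEquiv.ext fun g => by rw [← end_pow, ← end_pow]; exact DFunLike.congr_fun e g⟩ hfix hs
    (by rw [← sq, s2, map_one]) (fun r h => (R.isPos_iff _).2 fun i => h5 r i ▸ (R.isPos_iff _).1 h _)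
    (fun r => R.rt_inj (funext fun i => by rw [← h5 r, ← h5 (ρ r), π2])) (fun r => π3 r _ (h5 r)) h0 hE hE2⟩
  obtain ⟨r, hr⟩ := t3
  exact hr ((A.r3.x_comm_torHom_iff A.good t r one_ne_zero).1 (by
    rw [← hs, ← mem_center_iff.1 (hker s e), mul_inv_cancel_right]))

end CL.IX
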